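import Mathlib
import Cfsg.Agent.Lib.Helper75.LW.Defs45

/-!
# LW45 (S0745): package [RES]

Restriction of the pointwise stabiliser of a finite set `S` to the complement of `S`.
-/

set_option autoImplicit false

namespace Cfsg.Agent.Lib.Helper93.LW

open Cfsg.Agent.Lib.Helper75.LW

universe u

/-- the restriction to the complement of `S` of the pointwise stabiliser of `S` in `G` -/
def resSub {α : Type u} (G : Subgroup (Equiv.Perm α)) (S : Finset α) :
    Subgroup (Equiv.Perm {a : α // a ∉ S}) where
  carrier := {σ | ∃ g ∈ G, (∀ a ∈ S, g a = a) ∧ ∀ b : {a : α // a ∉ S}, g b.1 = (σ b).1}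
  mul_mem' := by
    rintro σ τ ⟨g, hg, hgS, hgσ⟩ ⟨k, hk, hkS, hkτ⟩
    refine ⟨g * k, G.mul_mem hg hk, fun a ha => ?_, fun b => ?_⟩
    · rw [Equiv.Perm.mul_apply, hkS a ha, hgS a ha]
    · rw [Equiv.Perm.mul_apply, Equiv.Perm.mul_apply, hkτ b, hgσ (τ b)]
  one_mem' := ⟨1, G.one_mem, fun _ _ => rfl, fun _ => rfl⟩
  inv_mem' := by
    rintro σ ⟨g, hg, hgS, hgσ⟩
    refine ⟨g⁻¹, G.inv_mem hg, fun a ha => ?_, fun b => ?_⟩
    · rw [Equiv.Perm.inv_eq_iff_eq]; exact (hgS a ha).symm
    · rw [Equiv.Perm.inv_eq_iff_eq]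
      have h := hgσ (σ⁻¹ b)
      rw [h]
      simp

theorem mem_resSub {α : Type u} {G : Subgroup (Equiv.Perm α)} {S : Finset α}
    {σ : Equiv.Perm {a : α // a ∉ S}} :
    σ ∈ resSub G S ↔ ∃ g ∈ G, (∀ a ∈ S, g a = a) ∧ ∀ b : {a : α // a ∉ S}, g b.1 = (σ b).1 :=
  Iff.rfl

theorem res_HT {α : Type u} [Fintype α] [DecidableEq α] (G : Subgroup (Equiv.Perm α))
    (S : Finset α) (j : ℕ) (hT : HT G (S.card + j)) : HT (resSub G S) j := by
  intro x y
  -- enumeration of `S`
  let e : Fin S.card ≃ {a : α // a ∈ S} := S.equivFin.symm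
  -- the extended tuples
  let X : Fin (S.card + j) → α := Fin.append (fun i => (e i).1) (fun i => (x i).1)
  let Y : Fin (S.card + j) → α := Fin.append (fun i => (e i).1) (fun i => (y i).1)
  have inj : ∀ z : Fin j ↪ {a : α // a ∉ S},
      Function.Injective (Fin.append (fun i => (e i).1) (fun i => (z i).1) :
        Fin (S.card + j) → α) := by
    intro z a b hab
    induction a using Fin.addCases with
    | left a =>
      induction b using Fin.addCases with
      | left b =>
        rw [Fin.append_left, Fin.append_left] at hab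
        have := e.injective (Subtype.ext hab)
        rw [this]
      | right b =>
        rw [Fin.append_left, Fin.append_right] at hab
        exact absurd (hab ▸ (e a).2) (z b).2
    | right a =>
      induction b using Fin.addCases with
      | left b =>
        rw [Fin.append_left, Fin.append_right] at hab
        exact absurd (hab ▸ (e b).2) (z a).2
      | right b =>
        rw [Fin.append_right, Fin.append_right] at hab
        have := z.injective (Subtype.ext hab)
        rw [this]
  obtain ⟨g, hg, hgXY⟩ := hT ⟨X, inj x⟩ ⟨Y, inj y⟩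
  have hgS : ∀ a ∈ S, g a = a := by
    intro a ha
    have h := hgXY (Fin.castAdd j (e.symm ⟨a, ha⟩))
    simp only [Function.Embedding.coeFn_mk, X, Y, Fin.append_left, Equiv.apply_symm_apply] at h
    exact h
  have hgc : ∀ a, g a ∉ S ↔ a ∉ S := by
    intro a
    constructor
    · intro h ha
      exact h (by rw [hgS a ha]; exact ha)
    · intro h ha
      have h2 := hgS (g a) ha
      exact h (by rw [← g.injective h2]; exact ha)
  refine ⟨g.subtypePerm hgc, ⟨g, hg, hgS, fun b => rfl⟩, fun i => ?_⟩
  apply Subtype.ext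
  have h := hgXY (Fin.natAdd S.card i)
  simp only [Function.Embedding.coeFn_mk, X, Y, Fin.append_right] at h
  exact h

theorem res_Triv {α : Type u} [Fintype α] [DecidableEq α] (G : Subgroup (Equiv.Perm α))
    (S : Finset α) (j : ℕ) (hTr : Triv G (S.card + j)) : Triv (resSub G S) j := by
  intro s' hs' σ hσ hfix
  obtain ⟨g, hg, hgS, hgσ⟩ := hσ
  let T : Finset α := S ∪ s'.map (Function.Embedding.subtype _)
  have hdisj : Disjoint S (s'.map (Function.Embedding.subtype _)) := by
    rw [Finset.disjoint_left]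
    intro a ha ha'
    rw [Finset.mem_map] at ha'
    obtain ⟨b, _, hb⟩ := ha'
    exact b.2 (by rw [Function.Embedding.coe_subtype] at hb; rw [hb]; exact ha)
  have hT : T.card = S.card + j := by
    rw [Finset.card_union_of_disjoint hdisj, Finset.card_map, hs']
  have hg1 : g = 1 := by
    refine hTr T hT g hg (fun a ha => ?_)
    rcases Finset.mem_union.1 ha with ha | ha
    · exact hgS a ha
    · rw [Finset.mem_map] at ha
      obtain ⟨b, hb, hba⟩ := ha
      rw [Function.Embedding.coe_subtype] at hba
      rw [← hba, hgσ b, hfix b hb]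
  ext b
  have h := hgσ b
  rw [hg1] at h
  rw [Equiv.Perm.one_apply]
  exact h.symm

/-- [RES] -/
theorem pkgRes : PkgRes.{u} := by
  intro α _ _ G S j hT hTr
  exact ⟨resSub G S, res_HT G S j hT, res_Triv G S j hTr⟩

end Cfsg.Agent.Lib.Helper93.LW
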